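import Cfsg.Agent.Lib.H34.TCU6C.Data
import Cfsg.Agent.Lib.H35.TC
set_option autoImplicit false
set_option maxRecDepth 100000
set_option linter.all false
namespace H34.TCU6C
open H35.TC
/-- letters -/
inductive Lt | t0 | t1 | t2 | t3 | t4 | s1 | s3
  deriving DecidableEq
/-- inverse letter -/
def inv : Lt → Lt
  | .t0 => .t0
  | .t1 => .t1
  | .t2 => .t2
  | .t3 => .t3
  | .t4 => .t4
  | .s1 => .s1
  | .s3 => .s3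
/-- table functions -/
noncomputable def T : Lt → ℕ → ℕ
  | .t0 => T_t0
  | .t1 => T_t1
  | .t2 => T_t2
  | .t3 => T_t3
  | .t4 => T_t4
  | .s1 => T_s1
  | .s3 => T_s3
/-- decoding of letter codes -/
def lt : ℕ → Lt
  | 0 => .t0
  | 1 => .t1
  | 2 => .t2
  | 3 => .t3
  | 4 => .t4
  | 5 => .s1
  | _ => .s3
/-- Coxeter matrix (0: no relation) -/
def mm : Lt → Lt → ℕ
  | .t0, .t0 => 1
  | .t0, .t1 => 3
  | .t0, .t3 => 3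
  | .t0, .t4 => 2
  | .t0, .s1 => 2
  | .t0, .s3 => 2
  | .t1, .t0 => 3
  | .t1, .t1 => 1
  | .t1, .t2 => 3
  | .t1, .t3 => 2
  | .t1, .t4 => 3
  | .t1, .s1 => 2
  | .t1, .s3 => 2
  | .t2, .t1 => 3
  | .t2, .t2 => 1
  | .t2, .t3 => 2
  | .t2, .t4 => 2
  | .t2, .s1 => 2
  | .t2, .s3 => 2
  | .t3, .t0 => 3
  | .t3, .t1 => 2
  | .t3, .t2 => 2
  | .t3, .t3 => 1
  | .t3, .t4 => 2
  | .t3, .s1 => 2
  | .t3, .s3 => 2
  | .t4, .t0 => 2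
  | .t4, .t1 => 3
  | .t4, .t2 => 2
  | .t4, .t3 => 2
  | .t4, .t4 => 1
  | .t4, .s1 => 2
  | .t4, .s3 => 2
  | .s1, .t0 => 2
  | .s1, .t1 => 2
  | .s1, .t2 => 2
  | .s1, .t3 => 2
  | .s1, .t4 => 2
  | .s1, .s1 => 1
  | .s1, .s3 => 2
  | .s3, .t0 => 2
  | .s3, .t1 => 2
  | .s3, .t2 => 2
  | .s3, .t3 => 2
  | .s3, .t4 => 2
  | .s3, .s1 => 2
  | .s3, .s3 => 1
  | _, _ => 0
/-- extra relators `w ^ n` -/
def extra : List (List Lt × ℕ) := [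
  ([.t0, .t2, .t0, .t2, .t0, .t2, .s1], 1),
  ([.t0, .t1, .t2, .t1, .t0, .t1, .t2, .t1, .t0, .t1, .t2, .t1, .s3], 1)]
/-- relators -/
def rels : List (List Lt) := mkRels [(.s1, .t0), (.s3, .t4), (.s3, .t3), (.s3, .t2), (.s3, .t1), (.s3, .t0), (.s1, .s3), (.s1, .t4), (.s1, .t3), (.s1, .t2), (.s1, .t1), (.t3, .t4), (.t2, .t4), (.t2, .t3), (.t1, .t3), (.t0, .t4), (.t0, .t1), (.t1, .t4), (.t1, .t2), (.t0, .t3), (.t0, .t0), (.t1, .t1), (.t2, .t2), (.t3, .t3), (.t4, .t4), (.s1, .s1), (.s3, .s3)] mm extra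
/-- subgroup words -/
def subs : List (List Lt) := [
  [.t0],
  [.t1],
  [.t2],
  [.t3]]
noncomputable def dp_t0_0 (j u : ℕ) : Bool :=
  Bool.rec (motive := fun _ => Bool) (lF [T_t1, T_t2, T_t1, T_s3, T_t0, T_t1, T_t2, T_t1, T_t0, T_t1, T_t2, T_t1] M (Nat.sub (T_t0 u) (Nat.mod (T_t0 u) M)) (Nat.mod (T_t0 u) M) u) (lF [T_t2, T_s1, T_t0, T_t2, T_t0, T_t2] M (Nat.sub (T_t0 u) (Nat.mod (T_t0 u) M)) (Nat.mod (T_t0 u) M) u) (Nat.ble (nat_lit 10) j)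
noncomputable def dp_t0_1 (j u : ℕ) : Bool :=
  Bool.rec (motive := fun _ => Bool) (lH [] [] M (Nat.sub (T_t0 u) (Nat.mod (T_t0 u) M)) (Nat.mod (T_t0 u) M) u) (dp_t0_0 j u) (Nat.ble (nat_lit 9) j)
noncomputable def dp_t0_2 (j u : ℕ) : Bool :=
  Bool.rec (motive := fun _ => Bool) (lF [T_t2, T_t0, T_t2, T_s1, T_t0, T_t2] M (Nat.sub (T_t0 u) (Nat.mod (T_t0 u) M)) (Nat.mod (T_t0 u) M) u) (dp_t0_1 j u) (Nat.ble (nat_lit 8) j)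
noncomputable def disp_t0 (j u : ℕ) : Bool :=
  Bool.rec (motive := fun _ => Bool) (Bool.rec (motive := fun _ => Bool) (lDef P (nat_lit 0) (Nat.mod (T_t0 u) M) u) (lDef P (nat_lit 0) u (Nat.mod (T_t0 u) M)) (Nat.ble (nat_lit 1) j)) (Bool.rec (motive := fun _ => Bool) (Bool.rec (motive := fun _ => Bool) (lF3 T_t4 T_t0 T_t4 M (Nat.sub (T_t0 u) (Nat.mod (T_t0 u) M)) (Nat.mod (T_t0 u) M) u) (lF [T_t3, T_t0, T_t3, T_t0, T_t3] M (Nat.sub (T_t0 u) (Nat.mod (T_t0 u) M)) (Nat.mod (T_t0 u) M) u) (Nat.ble (nat_lit 3) j)) (Bool.rec (motive := fun _ => Bool) (Bool.rec (motive := fun _ => Bool) (lF1 T_t0 M (Nat.sub (T_t0 u) (Nat.mod (T_t0 u) M)) (Nat.mod (T_t0 u) M) u) (lF [T_t1, T_t0, T_t1, T_t0, T_t1] M (Nat.sub (T_t0 u) (Nat.mod (T_t0 u) M)) (Nat.mod (T_t0 u) M) u) (Nat.ble (nat_lit 5) j)) (Bool.rec (motive := fun _ => Bool) (lF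 [T_t1, T_t2, T_t1, T_t0, T_t1, T_t2, T_t1, T_s3, T_t0, T_t1, T_t2, T_t1] M (Nat.sub (T_t0 u) (Nat.mod (T_t0 u) M)) (Nat.mod (T_t0 u) M) u) (dp_t0_2 j u) (Nat.ble (nat_lit 7) j)) (Nat.ble (nat_lit 6) j)) (Nat.ble (nat_lit 4) j)) (Nat.ble (nat_lit 2) j)
noncomputable def chk_t0 (j u : ℕ) : Bool :=
  Bool.rec (motive := fun _ => Bool) (disp_t0 j u) (Nat.ble (Nat.succ (MG u)) A) (Nat.ble A (T_t0 u))
noncomputable def dp_t1_0 (j u : ℕ) : Bool :=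
  Bool.rec (motive := fun _ => Bool) (lH [] [] M (Nat.sub (T_t1 u) (Nat.mod (T_t1 u) M)) (Nat.mod (T_t1 u) M) u) (lF [T_t2, T_t1, T_t0, T_t1, T_t2, T_t1, T_s3, T_t0, T_t1, T_t2, T_t1, T_t0] M (Nat.sub (T_t1 u) (Nat.mod (T_t1 u) M)) (Nat.mod (T_t1 u) M) u) (Nat.ble (nat_lit 8) j)
noncomputable def dp_t1_1 (j u : ℕ) : Bool :=
  Bool.rec (motive := fun _ => Bool) (lF [T_t4, T_t1, T_t4, T_t1, T_t4] M (Nat.sub (T_t1 u) (Nat.mod (T_t1 u) M)) (Nat.mod (T_t1 u) M) u) (dp_t1_0 j u) (Nat.ble (nat_lit 7) j)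
noncomputable def disp_t1 (j u : ℕ) : Bool :=
  Bool.rec (motive := fun _ => Bool) (Bool.rec (motive := fun _ => Bool) (lDef P (nat_lit 1) (Nat.mod (T_t1 u) M) u) (lDef P (nat_lit 1) u (Nat.mod (T_t1 u) M)) (Nat.ble (nat_lit 1) j)) (Bool.rec (motive := fun _ => Bool) (Bool.rec (motive := fun _ => Bool) (lF3 T_t3 T_t1 T_t3 M (Nat.sub (T_t1 u) (Nat.mod (T_t1 u) M)) (Nat.mod (T_t1 u) M) u) (lF [T_t0, T_t1, T_t0, T_t1, T_t0] M (Nat.sub (T_t1 u) (Nat.mod (T_t1 u) M)) (Nat.mod (T_t1 u) M) u) (Nat.ble (nat_lit 3) j)) (Bool.rec (motive := fun _ => Bool) (lF [T_t2, T_t1, T_t2, T_t1, T_t2] M (Nat.sub (T_t1 u) (Nat.mod (T_t1 u) M)) (Nat.mod (T_t1 u) M) u) (Bool.rec (motive := fun _ => Bool) (lF1 T_t1 M (Nat.sub (T_t1 u) (Nat.mod (T_t1 u) M)) (Nat.mod (T_t1 u) M) u) (dp_t1_1 j u) (Nat.ble (nat_lit 6) j)) (Nat.ble (nat_lit 5) j)) (Nat.ble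 (nat_lit 4) j)) (Nat.ble (nat_lit 2) j)
noncomputable def chk_t1 (j u : ℕ) : Bool :=
  Bool.rec (motive := fun _ => Bool) (disp_t1 j u) (Nat.ble (Nat.succ (MG u)) A) (Nat.ble A (T_t1 u))
noncomputable def dp_t2_0 (j u : ℕ) : Bool :=
  Bool.rec (motive := fun _ => Bool) (lF [T_t0, T_t2, T_s1, T_t0, T_t2, T_t0] M (Nat.sub (T_t2 u) (Nat.mod (T_t2 u) M)) (Nat.mod (T_t2 u) M) u) (lF [T_t1, T_t2, T_t1, T_t2, T_t1] M (Nat.sub (T_t2 u) (Nat.mod (T_t2 u) M)) (Nat.mod (T_t2 u) M) u) (Nat.ble (nat_lit 6) j)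
noncomputable def dp_t2_1 (j u : ℕ) : Bool :=
  Bool.rec (motive := fun _ => Bool) (lH [] [] M (Nat.sub (T_t2 u) (Nat.mod (T_t2 u) M)) (Nat.mod (T_t2 u) M) u) (lF [T_t1, T_t0, T_t1, T_t2, T_t1, T_s3, T_t0, T_t1, T_t2, T_t1, T_t0, T_t1] M (Nat.sub (T_t2 u) (Nat.mod (T_t2 u) M)) (Nat.mod (T_t2 u) M) u) (Nat.ble (nat_lit 10) j)
noncomputable def dp_t2_2 (j u : ℕ) : Bool :=
  Bool.rec (motive := fun _ => Bool) (lF [T_t1, T_s3, T_t0, T_t1, T_t2, T_t1, T_t0, T_t1, T_t2, T_t1, T_t0, T_t1] M (Nat.sub (T_t2 u) (Nat.mod (T_t2 u) M)) (Nat.mod (T_t2 u) M) u) (dp_t2_1 j u) (Nat.ble (nat_lit 9) j)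
noncomputable def dp_t2_3 (j u : ℕ) : Bool :=
  Bool.rec (motive := fun _ => Bool) (lF [T_t0, T_t2, T_t0, T_t2, T_s1, T_t0] M (Nat.sub (T_t2 u) (Nat.mod (T_t2 u) M)) (Nat.mod (T_t2 u) M) u) (dp_t2_2 j u) (Nat.ble (nat_lit 8) j)
noncomputable def disp_t2 (j u : ℕ) : Bool :=
  Bool.rec (motive := fun _ => Bool) (Bool.rec (motive := fun _ => Bool) (lF3 T_t3 T_t2 T_t3 M (Nat.sub (T_t2 u) (Nat.mod (T_t2 u) M)) (Nat.mod (T_t2 u) M) u) (Bool.rec (motive := fun _ => Bool) (lDef P (nat_lit 2) (Nat.mod (T_t2 u) M) u) (lDef P (nat_lit 2) u (Nat.mod (T_t2 u) M)) (Nat.ble (nat_lit 2) j)) (Nat.ble (nat_lit 1) j)) (Bool.rec (motive := fun _ => Bool) (Bool.rec (motive := fun _ => Bool) (lF3 T_t4 T_t2 T_t4 M (Nat.sub (T_t2 u) (Nat.mod (T_t2 u) M)) (Nat.mod (T_t2 u) M) u) (lF1 T_t2 M (Nat.sub (T_t2 u) (Nat.mod (T_t2 u) M)) (Nat.mod (T_t2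 u) M) u) (Nat.ble (nat_lit 4) j)) (Bool.rec (motive := fun _ => Bool) (dp_t2_0 j u) (dp_t2_3 j u) (Nat.ble (nat_lit 7) j)) (Nat.ble (nat_lit 5) j)) (Nat.ble (nat_lit 3) j)
noncomputable def chk_t2 (j u : ℕ) : Bool :=
  Bool.rec (motive := fun _ => Bool) (disp_t2 j u) (Nat.ble (Nat.succ (MG u)) A) (Nat.ble A (T_t2 u))
noncomputable def dp_t3_0 (j u : ℕ) : Bool :=
  Bool.rec (motive := fun _ => Bool) (lF [T_t0, T_t3, T_t0, T_t3, T_t0] M (Nat.sub (T_t3 u) (Nat.mod (T_t3 u) M)) (Nat.mod (T_t3 u) M) u) (lH [] [] M (Nat.sub (T_t3 u) (Nat.mod (T_t3 u) M)) (Nat.mod (T_t3 u) M) u) (Nat.ble (nat_lit 7) j)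
noncomputable def disp_t3 (j u : ℕ) : Bool :=
  Bool.rec (motive := fun _ => Bool) (Bool.rec (motive := fun _ => Bool) (lDef P (nat_lit 3) (Nat.mod (T_t3 u) M) u) (Bool.rec (motive := fun _ => Bool) (lDef P (nat_lit 3) u (Nat.mod (T_t3 u) M)) (lF3 T_t2 T_t3 T_t2 M (Nat.sub (T_t3 u) (Nat.mod (T_t3 u) M)) (Nat.mod (T_t3 u) M) u) (Nat.ble (nat_lit 2) j)) (Nat.ble (nat_lit 1) j)) (Bool.rec (motive := fun _ => Bool) (Bool.rec (motive := fun _ => Bool) (lF3 T_t1 T_t3 T_t1 M (Nat.sub (T_t3 u) (Nat.mod (T_t3 u) M)) (Nat.mod (T_t3 u) M) u) (lF3 T_t4 T_t3 T_t4 M (Nat.sub (T_t3 u) (Nat.mod (T_t3 u) M)) (Nat.mod (T_t3 u) M) u) (Nat.ble (nat_lit 4) j)) (Bool.rec (motive := fun _ => Bool) (lF1 T_t3 M (Nat.sub (T_t3 u) (Nat.mod (T_t3 u) M)) (Nat.mod (T_t3 u) M) u) (dp_t3_0 j u) (Nat.ble (nat_lit 6) j)) (Nat.ble (nat_lit 5) j)) (Nat.ble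 (nat_lit 3) j)
noncomputable def chk_t3 (j u : ℕ) : Bool :=
  Bool.rec (motive := fun _ => Bool) (disp_t3 j u) (Nat.ble (Nat.succ (MG u)) A) (Nat.ble A (T_t3 u))
noncomputable def disp_t4 (j u : ℕ) : Bool :=
  Bool.rec (motive := fun _ => Bool) (Bool.rec (motive := fun _ => Bool) (lDef P (nat_lit 4) (Nat.mod (T_t4 u) M) u) (Bool.rec (motive := fun _ => Bool) (lDef P (nat_lit 4) u (Nat.mod (T_t4 u) M)) (lF3 T_t0 T_t4 T_t0 M (Nat.sub (T_t4 u) (Nat.mod (T_t4 u) M)) (Nat.mod (T_t4 u) M) u) (Nat.ble (nat_lit 2) j)) (Nat.ble (nat_lit 1) j)) (Bool.rec (motive := fun _ => Bool) (Bool.rec (motive := fun _ => Bool) (lF3 T_t2 T_t4 T_t2 M (Nat.sub (T_t4 u) (Nat.mod (T_t4 u) M)) (Nat.mod (T_t4 u) M) u) (lF3 T_t3 T_t4 T_t3 M (Nat.sub (T_t4 u) (Nat.mod (T_t4 u) M)) (Nat.mod (T_t4 u) M) u) (Nat.ble (nat_lit 4) j)) (Bool.rec (motive :=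 fun _ => Bool) (lF1 T_t4 M (Nat.sub (T_t4 u) (Nat.mod (T_t4 u) M)) (Nat.mod (T_t4 u) M) u) (lF [T_t1, T_t4, T_t1, T_t4, T_t1] M (Nat.sub (T_t4 u) (Nat.mod (T_t4 u) M)) (Nat.mod (T_t4 u) M) u) (Nat.ble (nat_lit 6) j)) (Nat.ble (nat_lit 5) j)) (Nat.ble (nat_lit 3) j)
noncomputable def chk_t4 (j u : ℕ) : Bool :=
  Bool.rec (motive := fun _ => Bool) (disp_t4 j u) (Nat.ble (Nat.succ (MG u)) A) (Nat.ble A (T_t4 u))
noncomputable def disp_s1 (j u : ℕ) : Bool :=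
  Bool.rec (motive := fun _ => Bool) (Bool.rec (motive := fun _ => Bool) (lF3 T_t2 T_s1 T_t2 M (Nat.sub (T_s1 u) (Nat.mod (T_s1 u) M)) (Nat.mod (T_s1 u) M) u) (lF3 T_t1 T_s1 T_t1 M (Nat.sub (T_s1 u) (Nat.mod (T_s1 u) M)) (Nat.mod (T_s1 u) M) u) (Nat.ble (nat_lit 1) j)) (Bool.rec (motive := fun _ => Bool) (lF3 T_t0 T_s1 T_t0 M (Nat.sub (T_s1 u) (Nat.mod (T_s1 u) M)) (Nat.mod (T_s1 u) M) u) (Bool.rec (motive := fun _ => Bool) (lF3 T_t4 T_s1 T_t4 M (Nat.sub (T_s1 u) (Nat.mod (T_s1 u) M)) (Nat.mod (T_s1 u) M) u) (Bool.rec (motive := fun _ => Bool) (lF3 T_t3 T_s1 T_t3 M (Nat.sub (T_s1 u) (Nat.mod (T_s1 u) M)) (Nat.mod (T_s1 u) M) u) (lF [T_t0, T_t2, T_t0, T_t2, T_t0, T_t2] M (Nat.sub (T_s1 u) (Nat.mod (T_s1 u) M)) (Nat.mod (T_s1 u) M) u) (Nat.ble (nat_lit 5) j)) (Nat.ble (nat_lit 4) j)) (Nat.ble (nat_lit 3) j)) (Nat.ble (nat_lit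 2) j)
noncomputable def chk_s1 (j u : ℕ) : Bool :=
  Bool.rec (motive := fun _ => Bool) (disp_s1 j u) (Nat.ble (Nat.succ (MG u)) A) (Nat.ble A (T_s1 u))
noncomputable def disp_s3 (j u : ℕ) : Bool :=
  Bool.rec (motive := fun _ => Bool) (Bool.rec (motive := fun _ => Bool) (lF3 T_t2 T_s3 T_t2 M (Nat.sub (T_s3 u) (Nat.mod (T_s3 u) M)) (Nat.mod (T_s3 u) M) u) (lF3 T_t0 T_s3 T_t0 M (Nat.sub (T_s3 u) (Nat.mod (T_s3 u) M)) (Nat.mod (T_s3 u) M) u) (Nat.ble (nat_lit 1) j)) (Bool.rec (motive := fun _ => Bool) (lF3 T_t1 T_s3 T_t1 M (Nat.sub (T_s3 u) (Nat.mod (T_s3 u) M)) (Nat.mod (T_s3 u) M) u) (Bool.rec (motive := fun _ => Bool) (lF3 T_t4 T_s3 T_t4 M (Nat.sub (T_s3 u) (Nat.mod (T_s3 u) M)) (Nat.mod (T_s3 u) M) u) (Bool.rec (motive := fun _ => Bool) (lF3 T_t3 T_s3 T_t3 M (Nat.sub (T_s3 u) (Nat.mod (T_s3 u) M)) (Nat.mod (T_s3 u) M)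 u) (lF [T_t0, T_t1, T_t2, T_t1, T_t0, T_t1, T_t2, T_t1, T_t0, T_t1, T_t2, T_t1] M (Nat.sub (T_s3 u) (Nat.mod (T_s3 u) M)) (Nat.mod (T_s3 u) M) u) (Nat.ble (nat_lit 5) j)) (Nat.ble (nat_lit 4) j)) (Nat.ble (nat_lit 3) j)) (Nat.ble (nat_lit 2) j)
noncomputable def chk_s3 (j u : ℕ) : Bool :=
  Bool.rec (motive := fun _ => Bool) (disp_s3 j u) (Nat.ble (Nat.succ (MG u)) A) (Nat.ble A (T_s3 u))
noncomputable def chkM (u : ℕ) : Bool := Nat.ble A (MG u)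
noncomputable def chkN (u : ℕ) : Bool :=
  band (chk_t0 (Nat.land (Nat.shiftRight (RS u) (nat_lit 0)) (nat_lit 15)) u) (band (chk_t1 (Nat.land (Nat.shiftRight (RS u) (nat_lit 4)) (nat_lit 15)) u) (band (chk_t2 (Nat.land (Nat.shiftRight (RS u) (nat_lit 8)) (nat_lit 15)) u) (band (chk_t3 (Nat.land (Nat.shiftRight (RS u) (nat_lit 12)) (nat_lit 15)) u) (band (chk_t4 (Nat.land (Nat.shiftRight (RS u) (nat_lit 16)) (nat_lit 15)) u) (band (chk_s1 (Nat.land (Nat.shiftRight (RS u) (nat_lit 20)) (nat_lit 15)) u) (band (chk_s3 (Nat.land (Nat.shiftRight (RS u) (nat_lit 24)) (nat_lit 15)) u) (chkM u)))))))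
noncomputable def chkP (u : ℕ) : Bool := Bool.rec (motive := fun _ => Bool) (chkN u) true (Nat.ble M u)
noncomputable def liveP (u : ℕ) : Bool := Bool.rec (motive := fun _ => Bool) (Nat.ble A (MG u)) false (Nat.ble M u)
end H34.TCU6C
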